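import Mathlib
import Cfsg.Agent.Lib.Helper58.UPair.Defs
import Cfsg.Agent.Lib.Helper45.HermSU

/-!
# Project UPair (S5984): package [GUDET]
-/

set_option autoImplicit false
open scoped MatrixGroups Matrix

namespace Cfsg.Agent.Lib.Helper61.UPair

universe u

theorem pkgGUDet : Cfsg.Agent.Lib.Helper58.UPair.PkgGUDet.{u} := by
  intro F _ _ q n g hF hg
  have hg' : Cfsg.Agent.Lib.Helper45.IsHermIso n F q (g : Matrix (Fin n) (Fin n) F) := hg
  exact Cfsg.Agent.Lib.Helper45.isHermIso_det hF hg'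

end Cfsg.Agent.Lib.Helper61.UPair
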