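import Mathlib
import Cfsg.Agent.Lib.Helper58.UPair.Defs
import Cfsg.Agent.Lib.Helper40.PGUClasses

/-!
# Project UPair (S5984): package [SCALNORM]
-/

set_option autoImplicit false
open scoped MatrixGroups Matrix

namespace Cfsg.Agent.Lib.Helper61.UPair

universe u

theorem pkgScalNorm : Cfsg.Agent.Lib.Helper58.UPair.PkgScalNorm.{u} := by
  intro F _ _ q n x z k hF hn hx hz
  have hxk : x ^ k ∈ Cfsg.GU n F q := pow_mem hx k
  have hxk' : Cfsg.Agent.Lib.Helper45.IsHermIso n F q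
      ((x ^ k : GL (Fin n) F) : Matrix (Fin n) (Fin n) F) := hxk
  rw [hz] at hxk'
  exact Cfsg.Agent.Lib.Helper40.PGUClasses.pow_of_scalar_iso hF hn z hxk'

end Cfsg.Agent.Lib.Helper61.UPair
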