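import Mathlib
import Cfsg.Agent.Lib.Helper58.UPair.Defs
import Cfsg.Agent.Lib.Helper45.HermSU

/-!
# Project UPair (S5984): package [SEMICORE]
-/

set_option autoImplicit false
open scoped MatrixGroups Matrix

namespace Cfsg.Agent.Lib.Helper61.UPair

universe u

/-- The arithmetic of `ord_r(q) = 2j`. -/
theorem semicore_arith (q r j : ℕ) (hr : r.Prime) (hj : 3 ≤ j)
    (ho : orderOf ((q : ℕ) : ZMod r) = 2 * j) :
    r ∣ q ^ j + 1 ∧ Nat.Coprime r (q + 1) ∧
      ∀ a, a ≤ j → (q ^ 2) ^ j ≡ (q ^ 2) ^ a [MOD r] → a = 0 ∨ a = j := by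
  have : Fact r.Prime := ⟨hr⟩
  have h1 : ((q : ZMod r)) ^ (2 * j) = 1 := by rw [← ho]; exact pow_orderOf_eq_one _
  refine ⟨?_, ?_, ?_⟩
  · have h2 : ((q : ZMod r) ^ j) ^ 2 = 1 := by rw [← pow_mul, mul_comm]; exact h1
    rw [pow_two] at h2
    rcases mul_self_eq_one_iff.mp h2 with h3 | h3
    · exfalso
      have := orderOf_dvd_of_pow_eq_one h3
      rw [ho] at this
      have := Nat.le_of_dvd (by omega) this
      omega
    · rw [← ZMod.natCast_eq_zero_iff]
      push_cast
      rw [h3]; ring
  · rw [Nat.Prime.coprime_iff_not_dvd hr]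
    intro hd
    have h4 : ((q : ZMod r)) + 1 = 0 := by
      have := (ZMod.natCast_eq_zero_iff (q + 1) r).mpr hd
      push_cast at this; exact this
    have h5 : (q : ZMod r) = -1 := eq_neg_of_add_eq_zero_left h4
    have h6 : (q : ZMod r) ^ 2 = 1 := by rw [h5]; ring
    have := orderOf_dvd_of_pow_eq_one h6
    rw [ho] at this
    have := Nat.le_of_dvd (by omega) this
    omega
  · intro a ha hmod
    have h7 : ((q : ZMod r) ^ 2) ^ j = ((q : ZMod r) ^ 2) ^ a := by
      have := (ZMod.natCast_eq_natCast_iff _ _ _).mpr hmod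
      push_cast at this; exact this
    rw [← pow_mul, h1] at h7
    have h8 : (q : ZMod r) ^ (2 * a) = 1 := by rw [pow_mul]; exact h7.symm
    have := orderOf_dvd_of_pow_eq_one h8
    rw [ho] at this
    have h9 : j ∣ a := (Nat.mul_dvd_mul_iff_left (by omega)).mp this
    rcases Nat.eq_zero_or_pos a with h0 | h0
    · left; exact h0
    · right; exact le_antisymm ha (Nat.le_of_dvd h0 h9)

theorem pkgSemiCore : Cfsg.Agent.Lib.Helper58.UPair.PkgSemiCore.{u} := by
  intro F _ _ p _ _ q r j hF hr hrp hjodd hj ho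
  classical
  have : Fact r.Prime := ⟨hr⟩
  obtain ⟨hdvd, hcop, hfix⟩ := semicore_arith q r j hr hj ho
  have hcard : r ∣ Nat.card (Cfsg.GU j F q) := by
    rw [Cfsg.Agent.Lib.Helper45.card_GU hF j]
    apply dvd_mul_of_dvd_right
    have hmem : j - 1 ∈ Finset.range j := Finset.mem_range.mpr (by omega)
    have hev : Even (j - 1) := by
      obtain ⟨k, hk⟩ := hjodd
      exact ⟨k, by omega⟩
    have := Finset.dvd_prod_of_mem
      (fun i => if Even i then q ^ (i + 1) + 1 else q ^ (i + 1) - 1) hmem
    simp only [if_pos hev] at this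
    have hj1 : j - 1 + 1 = j := by omega
    rw [hj1] at this
    exact hdvd.trans this
  obtain ⟨B0, hB0⟩ := exists_prime_orderOf_dvd_card' r hcard
  set B : GL (Fin j) F := (B0 : GL (Fin j) F) with hBdef
  have hBord : orderOf B = r := by rw [hBdef, Subgroup.orderOf_coe]; exact hB0
  have hBr : B ^ r = 1 := by rw [← hBord]; exact pow_orderOf_eq_one B
  have hBne : B ≠ 1 := by
    intro h
    rw [h, orderOf_one] at hBord
    exact hr.one_lt.ne hBord
  have hBGU : B ∈ Cfsg.GU j F q := B0.2
  have hBiso : Cfsg.Agent.Lib.Helper45.IsHermIso j F q (B : Matrix (Fin j) (Fin j) F) := hBGU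
  have hd1 : (B : Matrix (Fin j) (Fin j) F).det ^ (q + 1) = 1 :=
    Cfsg.Agent.Lib.Helper45.isHermIso_det hF hBiso
  have hd2 : (B : Matrix (Fin j) (Fin j) F).det ^ r = 1 := by
    have := congrArg (fun g : GL (Fin j) F => (g : Matrix (Fin j) (Fin j) F).det) hBr
    simp only [Units.val_pow_eq_pow_val, Matrix.det_pow, Units.val_one, Matrix.det_one] at this
    exact this
  have hdet : (B : Matrix (Fin j) (Fin j) F).det = 1 := by
    have e1 := orderOf_dvd_of_pow_eq_one hd1
    have e2 := orderOf_dvd_of_pow_eq_one hd2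
    have e3 : orderOf (B : Matrix (Fin j) (Fin j) F).det ∣ Nat.gcd r (q + 1) := Nat.dvd_gcd e2 e1
    rw [Nat.Coprime] at hcop
    rw [hcop, Nat.dvd_one] at e3
    exact orderOf_eq_one_iff.mp e3
  have hBSL : B ∈ Cfsg.Geo.specialLinear (Fin j) F := by
    rw [Cfsg.Geo.specialLinear, MonoidHom.mem_ker]
    apply Units.ext
    rw [Matrix.GeneralLinearGroup.val_det_apply]
    exact hdet
  refine ⟨B, ⟨hBGU, hBSL⟩, hBr, ?_⟩
  set M : Matrix (Fin j) (Fin j) F := Cfsg.Agent.Lib.Helper58.UPair.sh B 1 with hM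
  have hMv : ∀ v : Fin j → F, M *ᵥ v = (B : Matrix (Fin j) (Fin j) F) *ᵥ v - v := by
    intro v
    rw [hM]
    simp [Cfsg.Agent.Lib.Helper58.UPair.sh, Matrix.sub_mulVec]
  set W : Submodule F (Fin j → F) := LinearMap.ker M.mulVecLin with hW
  have hWmem : ∀ v, v ∈ W ↔ (B : Matrix (Fin j) (Fin j) F) *ᵥ v = v := by
    intro v
    rw [hW, LinearMap.mem_ker, Matrix.mulVecLin_apply, hMv, sub_eq_zero]
  let act : MulAction (Subgroup.zpowers B) (Fin j → F) :=
    { smul := fun g v => ((g : GL (Fin j) F) : Matrix (Fin j) (Fin j) F) *ᵥ v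
      one_smul := fun v => by
        show (((1 : Subgroup.zpowers B) : GL (Fin j) F) : Matrix (Fin j) (Fin j) F) *ᵥ v = v
        simp
      mul_smul := fun g h v => by
        show (((g * h : Subgroup.zpowers B) : GL (Fin j) F) : Matrix (Fin j) (Fin j) F) *ᵥ v =
          ((g : GL (Fin j) F) : Matrix (Fin j) (Fin j) F) *ᵥ
            (((h : GL (Fin j) F) : Matrix (Fin j) (Fin j) F) *ᵥ v)
        simp [Matrix.mulVec_mulVec] }
  have hsmul : ∀ (g : Subgroup.zpowers B) (v : Fin j → F),
      g • v = ((g : GL (Fin j) F) : Matrix (Fin j) (Fin j) F) *ᵥ v := fun _ _ => rfl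
  have hP : IsPGroup r (Subgroup.zpowers B) := by
    apply IsPGroup.of_card (n := 1)
    rw [Nat.card_zpowers, hBord, pow_one]
  have hfp : (MulAction.fixedPoints (Subgroup.zpowers B) (Fin j → F)) = (W : Set (Fin j → F)) := by
    ext v
    rw [MulAction.mem_fixedPoints, SetLike.mem_coe, hWmem]
    constructor
    · intro h
      exact h ⟨B, Subgroup.mem_zpowers B⟩
    · intro h g
      rw [hsmul]
      let S : Subgroup (GL (Fin j) F) :=
        { carrier := {g | (g : Matrix (Fin j) (Fin j) F) *ᵥ v = v}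
          mul_mem' := fun {a b} ha hb => by
            have ha' : (a : Matrix (Fin j) (Fin j) F) *ᵥ v = v := ha
            have hb' : (b : Matrix (Fin j) (Fin j) F) *ᵥ v = v := hb
            show ((a * b : GL (Fin j) F) : Matrix (Fin j) (Fin j) F) *ᵥ v = v
            rw [Units.val_mul, ← Matrix.mulVec_mulVec, hb', ha']
          one_mem' := by
            show ((1 : GL (Fin j) F) : Matrix (Fin j) (Fin j) F) *ᵥ v = v
            simp
          inv_mem' := fun {a} ha => by
            have ha' : (a : Matrix (Fin j) (Fin j) F) *ᵥ v = v := ha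
            show ((a⁻¹ : GL (Fin j) F) : Matrix (Fin j) (Fin j) F) *ᵥ v = v
            conv_lhs => rw [← ha']
            rw [Matrix.mulVec_mulVec, ← Units.val_mul, inv_mul_cancel, Units.val_one,
              Matrix.one_mulVec] }
      have hle : Subgroup.zpowers B ≤ S := by
        rw [Subgroup.zpowers_le]
        exact h
      exact hle g.2
  have hmod := hP.card_modEq_card_fixedPoints (Fin j → F)
  rw [hfp] at hmod
  have hcV : Nat.card (Fin j → F) = (q ^ 2) ^ j := by
    rw [Module.natCard_eq_pow_finrank (K := F), Module.finrank_fin_fun, Nat.card_eq_fintype_card,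
      hF]
  have hcW : Nat.card (W : Set (Fin j → F)) = (q ^ 2) ^ Module.finrank F W := by
    show Nat.card W = _
    rw [Module.natCard_eq_pow_finrank (K := F), Nat.card_eq_fintype_card, hF]
  rw [hcV, hcW] at hmod
  have hle : Module.finrank F W ≤ j := by
    have := Submodule.finrank_le W
    rwa [Module.finrank_fin_fun] at this
  have hrank : M.rank + Module.finrank F W = j := by
    have := LinearMap.finrank_range_add_finrank_ker M.mulVecLin
    rw [Module.finrank_fin_fun] at this
    exact this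
  rcases hfix _ hle hmod with h0 | h0
  · rw [h0] at hrank
    simpa using hrank
  · exfalso
    apply hBne
    have hWtop : W = ⊤ := Submodule.eq_top_of_finrank_eq (by rw [h0, Module.finrank_fin_fun])
    apply Units.ext
    rw [Units.val_one]
    ext a b
    have h1 := (hWmem (Pi.single b 1)).mp (by rw [hWtop]; trivial)
    have h2 := congrFun h1 a
    rw [Matrix.mulVec_single_one] at h2
    simpa [Matrix.one_apply, Pi.single_apply, eq_comm] using h2

end Cfsg.Agent.Lib.Helper61.UPair
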